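import Cfsg.Agent.H817.DPi.Def
import Cfsg.Agent.Lib.MinNormalNonabelian
import Cfsg.Agent.Lib.SubnormalJoin
import Cfsg.Agent.H571.DExtD

/-!
# S4247, exceptional groups: transport of the configuration; solvable subgroups of groups of rank one (helper56)

* `Cfg.map` : transport of a configuration along an isomorphism, `NoCfg.of_equiv`;
* `exists_elem` : a nontrivial solvable subgroup normalises an elementary abelian subgroup of its own;
* `nilp_of_hall` : `π`-subgroups of a group with a nilpotent Hall `π`-subgroup are nilpotent.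
-/

set_option autoImplicit false
set_option linter.unusedSectionVars false

namespace Cfsg.Agent.H56.DP

open Subgroup Cfsg Cfsg.Agent.H988.CPi Cfsg.Agent.H571.RV Cfsg.Agent.H571.DExt Cfsg.Agent.H817.DPi
open scoped Pointwise

universe u v

/-- no configuration -/
def NoCfg (π : Set ℕ) (S : Type u) [Group S] : Prop :=
  ∀ (P : Subgroup S) (K B : Subgroup (MulAut S)), ¬ Cfg π P K B

theorem card_map_equiv {G : Type*} {H : Type*} [Group G] [Group H] (e : G ≃* H) (P : Subgroup G) :
    Nat.card (P.map e.toMonoidHom) = Nat.card P :=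
  Nat.card_congr (P.equivMapOfInjective e.toMonoidHom e.injective).symm.toEquiv

theorem map_inn {S : Type u} {T : Type v} [Group S] [Group T] (e : S ≃* T) :
    (inn S).map (MulAut.congr e).toMonoidHom = inn T := by
  ext x
  constructor
  · rintro ⟨_, ⟨s, rfl⟩, rfl⟩
    refine ⟨e s, ?_⟩
    ext t
    simp [MulAut.congr, MulAut.conj_apply]
  · rintro ⟨t, rfl⟩
    refine ⟨_, ⟨e.symm t, rfl⟩, ?_⟩
    ext y
    simp [MulAut.congr, MulAut.conj_apply]

theorem Cfg.map {π : Set ℕ} {S : Type u} {T : Type v} [Group S] [Group T] (e : S ≃* T) {P : Subgroup S}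
    {K B : Subgroup (MulAut S)} (h : Cfg π P K B) :
    Cfg π (P.map e.toMonoidHom) (K.map (MulAut.congr e).toMonoidHom) (B.map (MulAut.congr e).toMonoidHom) := by
  refine ⟨h.two, ⟨?_, ?_⟩, ?_, ?_, ?_, ?_, ?_, ?_⟩
  · intro p hp hd
    rw [card_map_equiv] at hd
    exact h.hall.1 p hp hd
  · intro p hp hpπ hd
    rw [Subgroup.index_map_of_bijective (f := e.toMonoidHom) e.bijective] at hd
    exact h.hall.2 p hp hpπ hd
  · intro hn
    exact h.nnil (Group.nilpotent_of_mulEquiv (P.equivMapOfInjective e.toMonoidHom e.injective).symm)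
  · rw [card_map_equiv]; exact h.piK
  · rw [card_map_equiv]; exact h.piB
  · rintro _ ⟨k, hk, rfl⟩ _ ⟨x, hx, rfl⟩
    show e (k (e.symm (e x))) = e x
    rw [e.symm_apply_apply, h.fix k hk x hx]
  · rw [← map_inn e, ← Subgroup.map_sup, ← Subgroup.map_sup, h.sup]
  · intro g hg
    rw [← map_inn e, ← Subgroup.map_sup] at hg
    obtain ⟨g', hg', rfl⟩ := hg
    obtain ⟨x, hx, k, hk, b, hb, h1⟩ := h.fac g' hg'
    refine ⟨e x, ⟨x, hx, rfl⟩, MulAut.congr e k, ⟨k, hk, rfl⟩, MulAut.congr e b, ⟨b, hb, rfl⟩, ?_⟩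
    have h2 : MulAut.conj (e x) = MulAut.congr e (MulAut.conj x) := by
      ext y
      simp [MulAut.congr, MulAut.conj_apply]
    rw [h2, h1]
    exact (map_mul (MulAut.congr e) _ _).trans (congrArg (· * _) (map_mul (MulAut.congr e) _ _))

theorem NoCfg.of_equiv {π : Set ℕ} {S : Type u} {T : Type v} [Group S] [Group T] (e : S ≃* T) (h : NoCfg π T) :
    NoCfg π S := fun _ _ _ hc => h _ _ _ (Cfg.map e hc)

/-- a minimal normal subgroup of a solvable subgroup -/
theorem exists_elem {R : Type*} [Group R] [Finite R] (H : Subgroup R) [Group.IsSolvable H] [Nontrivial H] :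
    ∃ (p : ℕ) (E : Subgroup R), p.Prime ∧ IsPGroup p E ∧ E ≠ ⊥ ∧ E ≤ H ∧ (∀ x ∈ E, ∀ y ∈ E, x * y = y * x) ∧
      (∀ x ∈ E, x ^ p = 1) ∧ H ≤ Subgroup.normalizer (E : Set R) := by
  obtain ⟨N, hN, hN1, hmin⟩ := Cfsg.Agent.Lib.SubnormalJoin.exists_minimal_normal H
  obtain ⟨T, k, hTN, hTs, hk, ⟨e⟩⟩ := Cfsg.Agent.Lib.MinNormal.exists_mulEquiv_pi N hN1 hmin
  have hTsol : Group.IsSolvable T := inferInstance
  have hT := IsSimpleGroup.comm_iff_isSolvable (G := T) |>.2 hTsol
  have hab : ∀ x ∈ N, ∀ y ∈ N, Commute x y := by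
    intro x hx y hy
    have h1 : (⟨x, hx⟩ : N) * ⟨y, hy⟩ = ⟨y, hy⟩ * ⟨x, hx⟩ := by
      apply e.injective
      rw [map_mul, map_mul]
      funext i
      exact hT _ _
    exact congrArg Subtype.val h1
  obtain ⟨p, hp, hpN, hexp⟩ := Cfsg.Agent.Lib.MinNormalNonabelian.abelian_structure N hN1 hmin hab
  refine ⟨p, N.map H.subtype, hp, hpN.map _, ?_, ?_, ?_, ?_, ?_⟩
  · intro hb
    rw [Subgroup.map_eq_bot_iff_of_injective _ H.subtype_injective] at hb
    exact hN1 hb
  · exact Subgroup.map_subtype_le N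
  · rintro _ ⟨x, hx, rfl⟩ _ ⟨y, hy, rfl⟩
    rw [← map_mul, ← map_mul, (hab x hx y hy).eq]
  · rintro _ ⟨x, hx, rfl⟩
    rw [← map_pow, hexp x hx, map_one]
  · have h1 := Subgroup.le_normalizer_map (H := N) H.subtype
    rw [Subgroup.normalizer_eq_top N, ← MonoidHom.range_eq_map, Subgroup.range_subtype] at h1
    exact h1

/-- a subgroup of a nilpotent group -/
theorem nilp_of_hall {π : Set ℕ} {G : Type*} [Group G] [Finite G] {H P : Subgroup G} (hH : IsPiHall π H)
    (hn : Group.IsNilpotent H) (hP : PiN π (Nat.card P)) : Group.IsNilpotent P := by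
  obtain ⟨x, hx⟩ := le_conj_nilpotent hH hn hP
  have h1 : Group.IsNilpotent ↥(MulAut.conj x • H) :=
    Group.nilpotent_of_mulEquiv (Subgroup.equivSMul (MulAut.conj x) H)
  exact Group.nilpotent_of_mulEquiv (Subgroup.subgroupOfEquivOfLe hx)

/-- a normal subgroup whose index is prime to the order of `P` contains `P` -/
theorem le_of_coprime {G : Type*} [Group G] [Finite G] {V P : Subgroup G} (hPV : P ≤ normalizer (V : Set G)) {c : ℕ}
    (hc : Nat.card (normalizer (V : Set G)) ∣ c * Nat.card V) (hco : Nat.Coprime (Nat.card P) c) : P ≤ V := by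
  have hVn : V ≤ normalizer (V : Set G) := le_normalizer
  have h1 : V.relIndex (normalizer (V : Set G)) ∣ c := by
    have h2 : Nat.card V * V.relIndex (normalizer (V : Set G)) = Nat.card (normalizer (V : Set G)) := by
      rw [← Subgroup.relIndex_bot_left, ← Subgroup.relIndex_bot_left]
      exact Subgroup.relIndex_mul_relIndex _ _ _ bot_le hVn
    rw [← h2, mul_comm c] at hc
    exact Nat.dvd_of_mul_dvd_mul_left Nat.card_pos hc
  have h3 : (V.subgroupOf (normalizer (V : Set G))).Normal := inferInstance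
  have h4 : V.relIndex P ∣ c := by
    rw [← Subgroup.relIndex_subgroupOf hPV]
    exact (Subgroup.relIndex_dvd_index_of_normal _ _).trans h1
  have h5 : V.relIndex P = 1 := Nat.eq_one_of_dvd_coprimes hco (Subgroup.relIndex_dvd_card V P) h4
  exact Subgroup.relIndex_eq_one.1 h5

end Cfsg.Agent.H56.DP
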